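import Mathlib
import Cfsg.Agent.Lib.KP3.Defs

theorem CfsgLib.Auto.CfsgLib_KP3_qgo_eq_def : type_of% @CfsgLib.KP3.qgo.eq_def := @CfsgLib.KP3.qgo.eq_def
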